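import Mathlib
import Cfsg.Agent.Lib.Helper12.OHyp.ExDefs
import Cfsg.Agent.Lib.Helper44.Gram
import Cfsg.Agent.S0288

/-!
# OHYP (S5992), package [EBLK-EVEN] of helper12's cut of [EXIST]

For `i = ord_r(q)` even, `i = 2 j0`: the minus-type space `quadFormMinus (j0 - 1) F 0 (-ν)`
(`ν` a nonsquare) of dimension `i` has an isometry of order `r` without nonzero fixed vectors.
-/

set_option autoImplicit false
open scoped MatrixGroups
open Matrix

namespace Cfsg.Agent.Lib.Helper54.OHyp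

open Cfsg.Agent.Lib.Helper23.OHyp Cfsg.Agent.Lib.Helper12.OHyp

universe u

theorem natCast_ne_zero54 {F : Type u} [Field F] [Fintype F] {r : ℕ}
    (hr : r.Prime) (hrq : ¬ r ∣ Fintype.card F) : (r : F) ≠ 0 := by
  intro h
  obtain ⟨p, hp⟩ := CharP.exists F
  have hpp : p.Prime := CharP.char_is_prime F p
  have : Fact p.Prime := ⟨hpp⟩
  have h1 : p ∣ r := (CharP.cast_eq_zero_iff F p r).mp h
  have h2 : p = r := (Nat.prime_dvd_prime_iff_eq hpp hr).mp h1
  obtain ⟨k, -, hk⟩ := FiniteField.card F p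
  apply hrq
  rw [hk, ← h2]
  exact dvd_pow_self p k.ne_zero

theorem ordI_pos54 {q r : ℕ} (hr : r.Prime) (hq : ¬ r ∣ q) : 0 < ordI q r := by
  haveI : Fact r.Prime := ⟨hr⟩
  unfold ordI
  rw [orderOf_pos_iff]
  have hne : ((q : ℕ) : ZMod r) ≠ 0 := by
    rw [Ne, ZMod.natCast_eq_zero_iff]
    exact hq
  exact isOfFinOrder_iff_pow_eq_one.mpr
    ⟨r - 1, Nat.sub_pos_of_lt hr.one_lt, ZMod.pow_card_sub_one_eq_one hne⟩

/-- `quadFormMinus k F a c` is a nondegenerate quadratic form when `2 ≠ 0` and `4 c - a² ≠ 0`. -/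
theorem quadFormMinus_nondeg {F : Type u} [Field F] (h2 : (2 : F) ≠ 0) (k : ℕ) (a c : F)
    (hd : 4 * c - a ^ 2 ≠ 0) :
    Cfsg.Geo.IsNondegenerateQuadraticForm (Cfsg.quadFormMinus k F a c) := by
  have hpol : ∀ u v, QuadraticMap.polar (Cfsg.quadFormMinus k F a c) u v =
      Cfsg.Agent.Lib.Helper44.minusPolar k F a c u v :=
    Cfsg.Agent.Lib.Helper44.polar_quadFormMinus k F a c
  refine ⟨?_, ⟨?_, ?_, ?_, ?_⟩, ?_⟩
  · intro t v
    simp only [Cfsg.quadFormMinus, Pi.smul_apply, smul_eq_mul]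
    rw [mul_add, Finset.mul_sum]
    congr 1
    · apply Finset.sum_congr rfl
      intro i _
      ring
    · ring
  · intro x y v
    rw [hpol, hpol, hpol, map_add, LinearMap.add_apply]
  · intro t x v
    rw [hpol, hpol, map_smul, LinearMap.smul_apply, smul_eq_mul]
  · intro v x y
    rw [hpol, hpol, hpol, map_add]
  · intro t v x
    rw [hpol, hpol, map_smul, smul_eq_mul]
  · have hdet : (Cfsg.Agent.Lib.Helper44.minusGram k F a c).det ≠ 0 := by
      rw [Cfsg.Agent.Lib.Helper44.det_minusGram k F h2]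
      exact mul_ne_zero (pow_ne_zero _ (neg_ne_zero.2 one_ne_zero)) hd
    intro v hv
    have h1 : ∃ w, QuadraticMap.polar (Cfsg.quadFormMinus k F a c) v w ≠ 0 := by
      by_contra hcon
      push Not at hcon
      apply hv
      apply Matrix.eq_zero_of_vecMul_eq_zero hdet
      apply dotProduct_eq_zero
      intro w
      have h3 := hcon w
      rw [hpol] at h3
      rw [← Matrix.dotProduct_mulVec]
      simpa [Cfsg.Agent.Lib.Helper44.minusPolar, Matrix.toBilin'_apply'] using h3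
    refine ⟨?_, h1⟩
    obtain ⟨w, hw⟩ := h1
    exact ⟨w, by rwa [QuadraticMap.polar_comm]⟩

theorem pkgEBlkEven_of (hSp : PkgSplit.{u}) (hDv : PkgDiv.{u}) : PkgEBlkEven.{u} := by
  intro F _ _ r hr hr2 hrq h2 he
  haveI : Fact r.Prime := ⟨hr⟩
  obtain ⟨j0, hj0⟩ := he
  have hipos : 0 < ordI (Fintype.card F) r := ordI_pos54 hr hrq
  have hj0pos : 1 ≤ j0 := by omega
  have hch : ringChar F ≠ 2 := by
    intro h
    apply h2
    have h3 := ringChar.Nat.cast_ringChar (R := F)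
    rw [h] at h3
    exact_mod_cast h3
  obtain ⟨ν, hν⟩ := FiniteField.exists_nonsquare hch
  have hν0 : ν ≠ 0 := by
    rintro rfl
    exact hν ⟨0, by simp⟩
  have hab : ∀ z₁ z₂ : F, z₁ ^ 2 + 0 * z₁ * z₂ + (-ν) * z₂ ^ 2 = 0 → z₁ = 0 ∧ z₂ = 0 := by
    intro z1 z2 h
    have hz2 : z2 = 0 := by
      by_contra hz
      apply hν
      refine ⟨z1 / z2, ?_⟩
      field_simp
      linear_combination (-1 : F) * h
    subst hz2
    have h3 : z1 ^ 2 = 0 := by linear_combination h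
    exact ⟨pow_eq_zero_iff (by norm_num) |>.1 h3, rfl⟩
  have hcard := Cfsg.Agent.S0288.result (F := F) (q := Fintype.card F) rfl j0 hj0pos 0 (-ν) hab
  -- `r ∣ q ^ j0 + 1`
  have ht2 : (((Fintype.card F : ℕ) : ZMod r) ^ j0) * (((Fintype.card F : ℕ) : ZMod r) ^ j0) = 1 := by
    rw [← pow_add, ← hj0]
    exact pow_orderOf_eq_one _
  have ht1 : ((Fintype.card F : ℕ) : ZMod r) ^ j0 ≠ 1 := by
    intro h
    have h3 : ordI (Fintype.card F) r ∣ j0 := orderOf_dvd_of_pow_eq_one h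
    have h4 := Nat.le_of_dvd (by omega) h3
    omega
  have ht : ((Fintype.card F : ℕ) : ZMod r) ^ j0 = -1 := by
    rcases mul_self_eq_one_iff.1 ht2 with h | h
    · exact absurd h ht1
    · exact h
  have hdvd : r ∣ Fintype.card F ^ j0 + 1 := by
    rw [← ZMod.natCast_eq_zero_iff]
    push_cast
    rw [ht]
    ring
  have hdvd2 : r ∣ Nat.card (Cfsg.isometryGroup F (Cfsg.quadFormMinus (j0 - 1) F 0 (-ν))) := by
    rw [hcard]
    exact Dvd.dvd.mul_right (Dvd.dvd.mul_left hdvd _) _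
  obtain ⟨y0, hy0⟩ := exists_prime_orderOf_dvd_card' r hdvd2
  have hQE : Cfsg.Geo.IsNondegenerateQuadraticForm (Cfsg.quadFormMinus (j0 - 1) F 0 (-ν)) := by
    apply quadFormMinus_nondeg h2
    intro h
    have h4 : (4 : F) = 2 * 2 := by norm_num
    have h5 : (2 : F) * 2 * ν = 0 := by linear_combination (-1 : F) * h - ν * h4
    rcases mul_eq_zero.1 h5 with h6 | h6
    · rcases mul_eq_zero.1 h6 with h7 | h7 <;> exact h2 h7
    · exact hν0 h6
  have hy0r : y0 ^ r = 1 := by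
    rw [← hy0]
    exact pow_orderOf_eq_one y0
  have hy0one : y0 ≠ 1 := by
    intro h
    rw [h, orderOf_one] at hy0
    exact hr.one_lt.ne hy0
  have hyr : (y0 : GL ((Fin (j0 - 1) ⊕ Fin (j0 - 1)) ⊕ Fin 2) F) ^ r = 1 := by
    have h := congrArg Subtype.val hy0r
    simpa using h
  have hy1 : (y0 : GL ((Fin (j0 - 1) ⊕ Fin (j0 - 1)) ⊕ Fin 2) F) ≠ 1 := by
    intro h
    exact hy0one (Subtype.ext h)
  have hcardκ : Fintype.card ((Fin (j0 - 1) ⊕ Fin (j0 - 1)) ⊕ Fin 2) = cc (Fintype.card F) r := by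
    have hcc : cc (Fintype.card F) r = ordI (Fintype.card F) r := by
      unfold cc
      rw [if_pos ⟨j0, hj0⟩]
    rw [hcc, Fintype.card_sum, Fintype.card_sum, Fintype.card_fin, Fintype.card_fin]
    omega
  refine ⟨(Fin (j0 - 1) ⊕ Fin (j0 - 1)) ⊕ Fin 2, inferInstance, inferInstance,
    Cfsg.quadFormMinus (j0 - 1) F 0 (-ν), (y0 : GL ((Fin (j0 - 1) ⊕ Fin (j0 - 1)) ⊕ Fin 2) F),
    ⟨Sum.inr 0⟩, hcardκ, hQE, y0.2, hyr, ?_⟩
  obtain ⟨Y, hY⟩ : ∃ Y : Matrix ((Fin (j0 - 1) ⊕ Fin (j0 - 1)) ⊕ Fin 2)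
      ((Fin (j0 - 1) ⊕ Fin (j0 - 1)) ⊕ Fin 2) F,
      Y = ((y0 : GL ((Fin (j0 - 1) ⊕ Fin (j0 - 1)) ⊕ Fin 2) F) :
        Matrix ((Fin (j0 - 1) ⊕ Fin (j0 - 1)) ⊕ Fin 2)
          ((Fin (j0 - 1) ⊕ Fin (j0 - 1)) ⊕ Fin 2) F) := ⟨_, rfl⟩
  rw [← hY]
  have hYr : Y ^ r = 1 := by
    have h := congrArg (fun g : GL ((Fin (j0 - 1) ⊕ Fin (j0 - 1)) ⊕ Fin 2) F =>
      (g : Matrix ((Fin (j0 - 1) ⊕ Fin (j0 - 1)) ⊕ Fin 2)
        ((Fin (j0 - 1) ⊕ Fin (j0 - 1)) ⊕ Fin 2) F)) hyr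
    simp only [Units.val_pow_eq_pow_val, Units.val_one] at h
    rw [hY]
    exact h
  have hY1 : Y ≠ 1 := by
    intro h
    apply hy1
    apply Units.ext
    rw [← hY, h, Units.val_one]
  have hstd : Std (Cfsg.quadFormMinus (j0 - 1) F 0 (-ν)) r Y := by
    refine ⟨hQE, h2, hr, hr2, hrq, natCast_ne_zero54 hr hrq, hYr, ?_⟩
    intro v
    rw [hY]
    exact y0.2 v v
  obtain ⟨-, hNdN, -, hCompl, hInvN, -⟩ := hSp F _ _ r Y hstd
  have hdiv := (hDv F _ _ r Y hstd (movSp Y) le_rfl hInvN hNdN).1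
  have hmov : movSp Y ≠ ⊥ := by
    intro h
    unfold movSp at h
    rw [LinearMap.range_eq_bot] at h
    apply hY1
    have h3 : Matrix.toLin' Y = Matrix.toLin' (1 : Matrix _ _ F) := by
      rw [Matrix.toLin'_one]
      exact sub_eq_zero.1 h
    exact Matrix.toLin'.injective h3
  have hfr_le : Module.finrank F (movSp Y) ≤
      Fintype.card ((Fin (j0 - 1) ⊕ Fin (j0 - 1)) ⊕ Fin 2) := by
    have h := Submodule.finrank_le (movSp Y)
    rwa [Module.finrank_fintype_fun_eq_card] at h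
  have hfr_pos : 0 < Module.finrank F (movSp Y) := by
    rw [Nat.pos_iff_ne_zero]
    intro h0
    exact hmov (Submodule.finrank_eq_zero.1 h0)
  have hfr : Module.finrank F (movSp Y) =
      Fintype.card ((Fin (j0 - 1) ⊕ Fin (j0 - 1)) ⊕ Fin 2) := by
    apply le_antisymm hfr_le
    rw [hcardκ]
    exact Nat.le_of_dvd hfr_pos hdiv
  have htop : movSp Y = ⊤ := by
    apply Submodule.eq_top_of_finrank_eq
    rw [hfr, Module.finrank_fintype_fun_eq_card]
  have hfix : fixSp Y = ⊥ := by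
    have h := hCompl.disjoint
    rw [htop] at h
    exact disjoint_top.1 h
  have hinj : Function.Injective (Y - 1).mulVec := by
    unfold fixSp at hfix
    rw [LinearMap.ker_eq_bot] at hfix
    intro u v huv
    apply hfix
    rw [Matrix.sub_mulVec, Matrix.sub_mulVec, Matrix.one_mulVec, Matrix.one_mulVec] at huv
    simp only [LinearMap.sub_apply, Matrix.toLin'_apply, Module.End.one_apply]
    exact huv
  exact (Matrix.isUnit_iff_isUnit_det _).1 (Matrix.mulVec_injective_iff_isUnit.1 hinj)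

end Cfsg.Agent.Lib.Helper54.OHyp
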